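import Cfsg.Agent.CIT.RedB
import Cfsg.Agent.H48.SdH

/-! The both-active case of the reduction of S2751 (helper57). -/

set_option autoImplicit false

namespace Cfsg.Agent.CIT.RedAct

open Subgroup Cfsg

universe u

theorem caseA {G : Type u} [Group G] (M₁ M₂ T : Subgroup G) [Finite M₁] [Finite M₂] (hT : T = M₁ ⊓ M₂)
    (F₁ : Fc M₁ T (pCoreOf 2 M₁))
    (w1 : H48.Sd.Wk (T.subgroupOf M₁) (⊤ : Subgroup M₁)) (w2 : H48.Sd.Wk (T.subgroupOf M₂) (⊤ : Subgroup M₂))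
    (hc : ∀ N : Subgroup G, N ≤ T → (N.subgroupOf M₁).Normal → (N.subgroupOf M₂).Normal → N = ⊥) :
    Nat.card T ≤ 16 := by
  classical
  set L := M₁ ⊔ M₂ with hL
  have hT1 : T ≤ M₁ := hT ▸ inf_le_left
  have hT2 : T ≤ M₂ := hT ▸ inf_le_right
  have hML1 : M₁ ≤ L := le_sup_left
  have hML2 : M₂ ≤ L := le_sup_right
  set P₁ := M₁.subgroupOf L with hP1
  set P₂ := M₂.subgroupOf L with hP2
  let e1 : M₁ ≃* P₁ := (Subgroup.subgroupOfEquivOfLe hML1).symm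
  let e2 : M₂ ≃* P₂ := (Subgroup.subgroupOfEquivOfLe hML2).symm
  haveI : Finite P₁ := Finite.of_equiv _ e1.toEquiv
  haveI : Finite P₂ := Finite.of_equiv _ e2.toEquiv
  have w1' := w1.map e1.toMonoidHom e1.injective
  have w2' := w2.map e2.toMonoidHom e2.injective
  have t1 : (⊤ : Subgroup M₁).map e1.toMonoidHom = ⊤ := by
    rw [← MonoidHom.range_eq_map]; exact MonoidHom.range_eq_top.2 e1.surjective
  have t2 : (⊤ : Subgroup M₂).map e2.toMonoidHom = ⊤ := by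
    rw [← MonoidHom.range_eq_map]; exact MonoidHom.range_eq_top.2 e2.surjective
  have s1 : (T.subgroupOf M₁).map e1.toMonoidHom = (T.subgroupOf L).subgroupOf P₁ := by
    ext x
    constructor
    · rintro ⟨y, hy, rfl⟩
      exact hy
    · intro hx
      refine ⟨⟨(x : L), x.2⟩, hx, ?_⟩
      rfl
  have s2 : (T.subgroupOf M₂).map e2.toMonoidHom = (T.subgroupOf L).subgroupOf P₂ := by
    ext x
    constructor
    · rintro ⟨y, hy, rfl⟩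
      exact hy
    · intro hx
      refine ⟨⟨(x : L), x.2⟩, hx, ?_⟩
      rfl
  rw [t1, s1] at w1'
  rw [t2, s2] at w2'
  have hgen : P₁ ⊔ P₂ = ⊤ := by
    rw [hP1, hP2, ← Subgroup.subgroupOf_sup hML1 hML2]
    exact Subgroup.subgroupOf_self _
  have hT' : T.subgroupOf L = P₁ ⊓ P₂ := by
    rw [hT]
    rfl
  have hfree : ∀ N : Subgroup L, N.Normal → N ≤ T.subgroupOf L → N = ⊥ := by
    intro N hN hNT
    have h1 : N.map L.subtype = ⊥ := by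
      apply hc
      · rintro _ ⟨x, hx, rfl⟩
        exact hNT hx
      · constructor
        rintro x ⟨y, hy, hyx⟩ m
        exact ⟨⟨(m : G), hML1 m.2⟩ * y * ⟨(m : G), hML1 m.2⟩⁻¹, hN.conj_mem y hy _, by
          show (m : G) * (y : G) * (m : G)⁻¹ = (m : G) * (x : G) * (m : G)⁻¹
          rw [show (y : G) = (x : G) from hyx]⟩
      · constructor
        rintro x ⟨y, hy, hyx⟩ m
        exact ⟨⟨(m : G), hML2 m.2⟩ * y * ⟨(m : G), hML2 m.2⟩⁻¹, hN.conj_mem y hy _, by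
          show (m : G) * (y : G) * (m : G)⁻¹ = (m : G) * (x : G) * (m : G)⁻¹
          rw [show (y : G) = (x : G) from hyx]⟩
    exact (Subgroup.map_eq_bot_iff_of_injective _ L.subtype_injective).1 h1
  have hmain := H48.Sd.main P₁ P₂ hgen (T.subgroupOf L) hT' hfree w1' w2'
  have hcard : Nat.card M₁ = Nat.card P₁ := Nat.card_congr e1.toEquiv
  have h24 : Nat.card (Equiv.Perm (Fin 4)) = 24 := by
    rw [Nat.card_perm]; simp [Nat.factorial]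
  have h48 : Nat.card P₁ ≤ 48 := by
    rcases hmain with ⟨⟨a⟩, -⟩ | ⟨⟨a⟩, -⟩
    · rw [Nat.card_congr a.toEquiv, h24]; norm_num
    · rw [Nat.card_congr a.toEquiv, Nat.card_prod, h24]
      have : Nat.card (Multiplicative (ZMod 2)) = 2 := by
        rw [Nat.card_congr Multiplicative.toAdd, Nat.card_zmod]
      rw [this]
  have h3 : Nat.card T * T.relIndex M₁ = Nat.card M₁ := by
    rw [← Subgroup.relIndex_bot_left, ← Subgroup.relIndex_bot_left, Subgroup.relIndex_mul_relIndex _ _ _ bot_le hT1]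
  rw [F₁.ti] at h3
  omega

theorem red_active {G : Type u} [Group G] (M₁ M₂ : Subgroup G) [Finite M₁] [Finite M₂]
    (ha₁ : ∃ P : Sylow 2 M₁, (P : Subgroup M₁) = (M₁ ⊓ M₂).subgroupOf M₁)
    (ha₂ : ∃ P : Sylow 2 M₂, (P : Subgroup M₂) = (M₁ ⊓ M₂).subgroupOf M₂)
    (hb₁ : Nonempty (M₁ ⧸ Cfsg.pCore 2 M₁ ≃* Equiv.Perm (Fin 3)))
    (hb₂ : Nonempty (M₂ ⧸ Cfsg.pCore 2 M₂ ≃* Equiv.Perm (Fin 3)))
    (hc : ∀ N : Subgroup G, N ≤ M₁ ⊓ M₂ → (N.subgroupOf M₁).Normal → (N.subgroupOf M₂).Normal →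
      N = ⊥)
    (h1 : ¬ ∀ x ∈ M₁ ⊓ M₂, x * x = 1 → (∀ t ∈ M₁ ⊓ M₂, t * x = x * t) → ∀ m ∈ M₁, m * x = x * m)
    (h2 : ¬ ∀ x ∈ M₁ ⊓ M₂, x * x = 1 → (∀ t ∈ M₁ ⊓ M₂, t * x = x * t) → ∀ m ∈ M₂, m * x = x * m) :
    Nat.card ↥(M₁ ⊓ M₂) ≤ 2 ^ 7 := by
  have F₁ := Fc.of (inf_le_left : M₁ ⊓ M₂ ≤ M₁) ha₁ hb₁
  have F₂ := Fc.of (inf_le_right : M₁ ⊓ M₂ ≤ M₂) ha₂ hb₂
  have hom : ∀ M : Subgroup G, ¬ (∀ x ∈ M₁ ⊓ M₂, x * x = 1 → (∀ t ∈ M₁ ⊓ M₂, t * x = x * t) → ∀ m ∈ M, m * x = x * m) →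
      ¬ M ≤ centralizer (omegaOne 2 ((M₁ ⊓ M₂) ⊓ centralizer ((M₁ ⊓ M₂ : Subgroup G) : Set G)) : Set G) := by
    intro M hM hle
    apply hM
    intro x hx hxx ht m hm
    have h3 : x ∈ omegaOne 2 ((M₁ ⊓ M₂) ⊓ centralizer ((M₁ ⊓ M₂ : Subgroup G) : Set G)) := by
      apply Subgroup.subset_closure
      refine ⟨Subgroup.mem_inf.2 ⟨hx, ?_⟩, by rw [pow_two]; exact hxx⟩
      rw [mem_centralizer_iff]
      exact fun t htt => ht t htt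
    exact (mem_centralizer_iff.1 (hle hm) x h3).symm
  suffices h : Nat.card ↥(M₁ ⊓ M₂) ≤ 16 from h.trans (by norm_num)
  by_cases hC1 : M₁ ⊓ centralizer (pCoreOf 2 M₁ : Set G) ≤ pCoreOf 2 M₁
  · by_cases hC2 : M₂ ⊓ centralizer (pCoreOf 2 M₂ : Set G) ≤ pCoreOf 2 M₂
    · exact caseA M₁ M₂ (M₁ ⊓ M₂) rfl F₁
        (H48.Sd.Wk.of_hyp inf_le_left hC1 ha₁ hb₁ (hom M₁ h1))
        (H48.Sd.Wk.of_hyp inf_le_right hC2 ha₂ hb₂ (hom M₂ h2)) hc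
    · exact caseB F₂ F₁ (fun N hN h3 h4 => hc N hN h4 h3) hC2
  · exact caseB F₁ F₂ hc hC1

end Cfsg.Agent.CIT.RedAct
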