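import Cfsg.Prelude.Def_PLocal
import Cfsg.Prelude.Def_Amalgam
import Cfsg.Agent.Solv.Core

/-! Case `C_{M}(O₂(M)) ≰ O₂(M)` of the reduction of S2751 (helper57). -/

set_option autoImplicit false

namespace Cfsg.Agent.CIT.RedAct

open Subgroup Cfsg

universe u

variable {G : Type u} [Group G]

/-- basic facts on a group `M` with Sylow 2-subgroup `T`, `M/O₂(M) = S₃` -/
structure Fc (M T Q : Subgroup G) : Prop where
  TM : T ≤ M
  QT : Q ≤ T
  pg : IsPGroup 2 T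
  qi : Q.relIndex T = 2
  ti : T.relIndex M = 3
  nQ : ∀ m ∈ M, ∀ x ∈ Q, m * x * m⁻¹ ∈ Q
  mx : ∀ K : Subgroup G, K ≤ T → (∀ m ∈ M, ∀ x ∈ K, m * x * m⁻¹ ∈ K) → K ≤ Q

theorem Fc.of {M T : Subgroup G} [Finite M] (hTM : T ≤ M)
    (h2 : ∃ S : Sylow 2 M, (S : Subgroup M) = T.subgroupOf M)
    (h4 : Nonempty (M ⧸ pCore 2 M ≃* Equiv.Perm (Fin 3))) : Fc M T (pCoreOf 2 M) := by
  obtain ⟨S, hS⟩ := h2
  obtain ⟨e⟩ := h4
  haveI : Fact (Nat.Prime 2) := ⟨Nat.prime_two⟩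
  have hQS : pCore 2 M ≤ T.subgroupOf M := by
    rw [← hS]
    exact (Solv.pCore_isPGroup 2).le_sylow_of_normal S
  have hpgS : IsPGroup 2 (T.subgroupOf M) := hS ▸ S.isPGroup'
  have hi : (pCore 2 M).index = 6 := by
    rw [Subgroup.index_eq_card, Nat.card_congr e.toEquiv, Nat.card_perm]
    simp [Nat.factorial]
  have hm : (pCore 2 M).relIndex (T.subgroupOf M) * (T.subgroupOf M).index = 6 := by
    rw [← hi]
    exact Subgroup.relIndex_mul_index hQS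
  have hodd : ¬ 2 ∣ (T.subgroupOf M).index := by
    rw [← hS]
    exact S.not_dvd_index
  have hpow : ∃ n, (pCore 2 M).relIndex (T.subgroupOf M) = 2 ^ n := by
    have h3 := Subgroup.relIndex_dvd_card (pCore 2 M) (T.subgroupOf M)
    obtain ⟨n, hn⟩ := (IsPGroup.iff_card).1 hpgS
    rw [hn, Nat.dvd_prime_pow Nat.prime_two] at h3
    obtain ⟨m, -, hm⟩ := h3
    exact ⟨m, hm⟩
  obtain ⟨n, hn⟩ := hpow
  have key : (pCore 2 M).relIndex (T.subgroupOf M) = 2 ∧ (T.subgroupOf M).index = 3 := by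
    rw [hn] at hm ⊢
    set b := (T.subgroupOf M).index with hb
    have hn3 : n < 3 := by
      by_contra hc
      push Not at hc
      have h6 : 2 ^ 3 ≤ 2 ^ n := Nat.pow_le_pow_right (by norm_num) hc
      have h7 : b ≠ 0 := by
        rintro h0
        rw [h0] at hm
        omega
      have h8 : 2 ^ 3 * 1 ≤ 2 ^ n * b := Nat.mul_le_mul h6 (Nat.one_le_iff_ne_zero.2 h7)
      omega
    interval_cases n
    · omega
    · omega
    · omega
  have hT : (T.subgroupOf M).map M.subtype = T := Subgroup.map_subgroupOf_eq_of_le hTM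
  refine ⟨hTM, ?_, ?_, ?_, key.2, ?_, ?_⟩
  · rintro _ ⟨x, hx, rfl⟩
    exact hQS hx
  · exact hpgS.of_equiv (Subgroup.subgroupOfEquivOfLe hTM)
  · have h5 := Subgroup.relIndex_map_map_of_injective (pCore 2 M) (T.subgroupOf M) M.subtype_injective
    rw [hT] at h5
    unfold pCoreOf
    rw [h5, key.1]
  · rintro m hm _ ⟨y, hy, rfl⟩
    exact ⟨⟨m, hm⟩ * y * ⟨m, hm⟩⁻¹, (Solv.pCore_normal 2).conj_mem y hy ⟨m, hm⟩, rfl⟩
  · intro K hK hn
    have h6 : (K.subgroupOf M).Normal := ⟨fun x hx m => hn m m.2 x hx⟩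
    have h7 : IsPGroup 2 (K.subgroupOf M) := hpgS.to_le (fun x hx => hK hx)
    have h8 := Solv.le_pCore h6 h7
    intro x hx
    exact ⟨⟨x, hTM (hK hx)⟩, h8 (show (⟨x, hTM (hK hx)⟩ : M) ∈ K.subgroupOf M from hx), rfl⟩

theorem caseB {M₁ M₂ T Q₁ Q₂ : Subgroup G} [Finite M₁] [Finite M₂] (F₁ : Fc M₁ T Q₁) (F₂ : Fc M₂ T Q₂)
    (hc : ∀ N : Subgroup G, N ≤ T → (N.subgroupOf M₁).Normal → (N.subgroupOf M₂).Normal → N = ⊥)
    (hC : ¬ M₁ ⊓ centralizer (Q₁ : Set G) ≤ Q₁) : Nat.card T ≤ 16 := by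
  classical
  haveI : Finite T := Finite.of_injective (Subgroup.inclusion F₁.TM) (Subgroup.inclusion_injective F₁.TM)
  set C := M₁ ⊓ centralizer (Q₁ : Set G) with hCd
  -- `C` is normal in `M₁` and not contained in `T`
  have hCn : ∀ m ∈ M₁, ∀ x ∈ C, m * x * m⁻¹ ∈ C := by
    intro m hm x hx
    obtain ⟨hx1, hx2⟩ := Subgroup.mem_inf.1 hx
    refine Subgroup.mem_inf.2 ⟨mul_mem (mul_mem hm hx1) (inv_mem hm), ?_⟩
    rw [mem_centralizer_iff] at hx2 ⊢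
    intro y hy
    have h1 := hx2 (m⁻¹ * y * m⁻¹⁻¹) (F₁.nQ m⁻¹ (inv_mem hm) y hy)
    calc y * (m * x * m⁻¹) = m * ((m⁻¹ * y * m⁻¹⁻¹) * x) * m⁻¹ := by group
      _ = m * (x * (m⁻¹ * y * m⁻¹⁻¹)) * m⁻¹ := by rw [h1]
      _ = m * x * m⁻¹ * y := by group
  have hCT : ¬ C ≤ T := fun h => hC (F₁.mx C h hCn)
  have hsup : T ⊔ C = M₁ := by
    have h1 := Subgroup.relIndex_mul_relIndex T (T ⊔ C) M₁ le_sup_left (sup_le F₁.TM inf_le_left)
    rw [F₁.ti] at h1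
    rcases (Nat.dvd_prime Nat.prime_three).1 (Dvd.intro _ h1) with h2 | h2
    · exact absurd (le_sup_right.trans (Subgroup.relIndex_eq_one.1 h2)) hCT
    · rw [h2] at h1
      exact le_antisymm (sup_le F₁.TM inf_le_left) (Subgroup.relIndex_eq_one.1 (by omega))
  -- the subgroup `N`
  let N : Subgroup G :=
    { carrier := {x | ∀ g ∈ M₂, g * x * g⁻¹ ∈ Q₁ ⊓ Q₂}
      one_mem' := by
        intro g _
        have : g * 1 * g⁻¹ = 1 := by group
        rw [this]; exact one_mem _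
      mul_mem' := by
        intro x y hx hy g hg
        have : g * (x * y) * g⁻¹ = (g * x * g⁻¹) * (g * y * g⁻¹) := by group
        rw [this]; exact mul_mem (hx g hg) (hy g hg)
      inv_mem' := by
        intro x hx g hg
        have : g * x⁻¹ * g⁻¹ = (g * x * g⁻¹)⁻¹ := by group
        rw [this]; exact inv_mem (hx g hg) }
  have hNR : N ≤ Q₁ ⊓ Q₂ := by
    intro x hx
    have := hx 1 (one_mem _)
    simpa using this
  have hN2 : ∀ m ∈ M₂, ∀ x ∈ N, m * x * m⁻¹ ∈ N := by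
    intro m hm x hx g hg
    have := hx (g * m) (mul_mem hg hm)
    have e : g * (m * x * m⁻¹) * g⁻¹ = g * m * x * (g * m)⁻¹ := by group
    rw [e]; exact this
  have hN1 : M₁ ≤ normalizer (N : Set G) := by
    rw [← hsup]
    refine sup_le ?_ ?_
    · intro m hm
      rw [mem_normalizer_iff]
      intro x
      refine ⟨hN2 m (F₂.TM hm) x, fun h => ?_⟩
      have := hN2 m⁻¹ (inv_mem (F₂.TM hm)) _ h
      have e : m⁻¹ * (m * x * m⁻¹) * m⁻¹⁻¹ = x := by group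
      rwa [e] at this
    · refine le_trans ?_ (Subgroup.centralizer_le_normalizer (s := (N : Set G)))
      refine le_trans inf_le_right (Subgroup.centralizer_le ?_)
      intro x hx
      exact (Subgroup.mem_inf.1 (hNR hx)).1
  have hNbot : N = ⊥ := by
    refine hc N (hNR.trans (inf_le_left.trans F₁.QT)) ?_ ?_
    · exact Subgroup.normal_subgroupOf_of_le_normalizer hN1
    · exact ⟨fun x hx m => hN2 m m.2 x hx⟩
  -- counting
  haveI : Fintype (M₂ ⧸ T.subgroupOf M₂) := Fintype.ofFinite _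
  let f : M₂ ⧸ T.subgroupOf M₂ → Subgroup G := fun q => (Q₁ ⊓ Q₂).map (MulAut.conj ((q.out : M₂) : G)).toMonoidHom
  have hf : (⨅ q, f q) ≤ N := by
    intro x hx g hg
    rw [Subgroup.mem_iInf] at hx
    set q : M₂ ⧸ T.subgroupOf M₂ := QuotientGroup.mk (⟨g, hg⟩⁻¹ : M₂) with hq
    have h1 : (q.out)⁻¹ * (⟨g, hg⟩⁻¹ : M₂) ∈ T.subgroupOf M₂ := by
      rw [← QuotientGroup.eq, QuotientGroup.out_eq']
    have h2 : ((q.out : M₂) : G)⁻¹ * g⁻¹ ∈ T := h1
    obtain ⟨y, hy, hyx⟩ := hx q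
    have h3 : ((q.out : M₂) : G) * y * ((q.out : M₂) : G)⁻¹ = x := hyx
    obtain ⟨hy1, hy2⟩ := Subgroup.mem_inf.1 hy
    set t := ((q.out : M₂) : G)⁻¹ * g⁻¹ with ht
    have h4 : g * x * g⁻¹ = t⁻¹ * y * t⁻¹⁻¹ := by
      rw [← h3, ht]; group
    rw [h4]
    exact Subgroup.mem_inf.2 ⟨F₁.nQ _ (F₁.TM (inv_mem h2)) y hy1, F₂.nQ _ (F₂.TM (inv_mem h2)) y hy2⟩
  have hQ2 : ∀ q : M₂ ⧸ T.subgroupOf M₂, (f q).relIndex Q₂ ≤ 2 := by
    intro q
    have h1 : Q₂.map (MulAut.conj ((q.out : M₂) : G)).toMonoidHom = Q₂ := by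
      apply le_antisymm
      · rintro _ ⟨x, hx, rfl⟩
        exact F₂.nQ _ (q.out : M₂).2 x hx
      · intro x hx
        refine ⟨((q.out : M₂) : G)⁻¹ * x * ((q.out : M₂) : G)⁻¹⁻¹, F₂.nQ _ (inv_mem (q.out : M₂).2) x hx, ?_⟩
        show ((q.out : M₂) : G) * (((q.out : M₂) : G)⁻¹ * x * ((q.out : M₂) : G)⁻¹⁻¹) * ((q.out : M₂) : G)⁻¹ = x
        group
    have h2 := Subgroup.relIndex_map_map_of_injective (Q₁ ⊓ Q₂) Q₂ (f := (MulAut.conj ((q.out : M₂) : G)).toMonoidHom)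
      (MulAut.conj ((q.out : M₂) : G)).injective
    rw [h1] at h2
    show ((Q₁ ⊓ Q₂).map (MulAut.conj ((q.out : M₂) : G)).toMonoidHom).relIndex Q₂ ≤ 2
    rw [h2, Subgroup.inf_relIndex_right, ← F₁.qi]
    exact Subgroup.relIndex_le_of_le_right F₂.QT (by rw [F₁.qi]; norm_num)
  have h5 : (⊥ : Subgroup G).relIndex Q₂ ≤ 8 := by
    have h6 : (⨅ q, f q) = ⊥ := le_bot_iff.1 (hNbot ▸ hf)
    rw [← h6]
    refine (Subgroup.relIndex_iInf_le f).trans ?_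
    refine (Finset.prod_le_pow_card _ _ 2 (fun q _ => hQ2 q)).trans ?_
    rw [Finset.card_univ, ← Nat.card_eq_fintype_card]
    have h7 : Nat.card (M₂ ⧸ T.subgroupOf M₂) = 3 := F₂.ti
    rw [h7]; norm_num
  have h8 : (⊥ : Subgroup G).relIndex Q₂ * Q₂.relIndex T = Nat.card T := by
    rw [Subgroup.relIndex_mul_relIndex _ _ _ bot_le F₂.QT, Subgroup.relIndex_bot_left]
  rw [F₂.qi] at h8
  omega

end Cfsg.Agent.CIT.RedAct
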